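import Mathlib
import Cfsg.Prelude.Def_LieExceptional

/-! Elementary counting in finite Zassenhaus groups. -/

set_option autoImplicit false
set_option linter.style.haveILetI false
set_option linter.unusedSectionVars false

namespace CfsgLib.Zass

open MulAction

universe u v

variable {G : Type u} [Group G] [Finite G] {Ω : Type v} [MulAction G Ω] [Fintype Ω]
open Classical in
/-- The points fixed by `g`. -/
noncomputable def fixset (g : G) : Finset Ω := Finset.univ.filter fun c => g • c = c

theorem mem_fixset {g : G} {c : Ω} : c ∈ fixset (Ω := Ω) g ↔ g • c = c := by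
  simp [fixset]

variable (hZ : Cfsg.IsZassenhausGroup G Ω)

include hZ

theorem exists_move {a b c d : Ω} (hab : a ≠ b) (hcd : c ≠ d) : ∃ g : G, g • a = c ∧ g • b = d :=
  (MulAction.is_two_pretransitive_iff.1 hZ.2.1) hab hcd

theorem eq_one_of_three {g : G} {a b c : Ω} (hab : a ≠ b) (hbc : b ≠ c) (hac : a ≠ c)
    (ha : g • a = a) (hb : g • b = b) (hc : g • c = c) : g = 1 :=
  hZ.2.2.1 g a b c hab hbc hac ha hb hc

theorem card_two_stab {a b c d : Ω} (hab : a ≠ b) (hcd : c ≠ d) :
    Nat.card ↥(stabilizer G a ⊓ stabilizer G b) = Nat.card ↥(stabilizer G c ⊓ stabilizer G d) := by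
  obtain ⟨g, hga, hgb⟩ := exists_move hZ hab hcd
  refine Nat.card_congr (Equiv.subtypeEquiv (MulAut.conj g).toEquiv fun x => ?_)
  simp only [Subgroup.mem_inf, mem_stabilizer_iff, MulEquiv.toEquiv_eq_coe, MulEquiv.coe_toEquiv,
    MulAut.conj_apply, ← hga, ← hgb, mul_smul, inv_smul_smul, smul_left_cancel_iff]

theorem pretransitive {a b : Ω} (hab : a ≠ b) : IsPretransitive G Ω := by
  constructor
  intro x y
  by_cases hxy : x = y
  · exact ⟨1, by rw [one_smul, hxy]⟩
  · obtain ⟨g, hga, -⟩ := exists_move hZ hxy (Ne.symm hxy)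
    exact ⟨g, hga⟩

theorem two_le_card {a b : Ω} (hab : a ≠ b) : 2 ≤ Fintype.card Ω := by
  classical
  have h := Finset.card_le_univ ({a, b} : Finset Ω)
  rw [Finset.card_pair hab] at h
  exact h

theorem one_lt_two_stab {a b : Ω} (hab : a ≠ b) : 1 < Nat.card ↥(stabilizer G a ⊓ stabilizer G b) := by
  obtain ⟨g, hg, c, d, hcd, hc, hd⟩ := hZ.2.2.2.1
  rw [card_two_stab hZ hab hcd]
  haveI : Nontrivial ↥(stabilizer G c ⊓ stabilizer G d) :=
    ⟨⟨⟨g, hc, hd⟩, 1, fun h => hg (congrArg Subtype.val h)⟩⟩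
  exact Finite.one_lt_card

theorem three_le_two_stab {a b : Ω} (hab : a ≠ b) (hodd : Odd (Nat.card ↥(stabilizer G a ⊓ stabilizer G b))) :
    3 ≤ Nat.card ↥(stabilizer G a ⊓ stabilizer G b) := by
  have := one_lt_two_stab hZ hab
  obtain ⟨m, hm⟩ := hodd
  omega

theorem card_stab {a b : Ω} (hab : a ≠ b) :
    Nat.card ↥(stabilizer G a) = (Fintype.card Ω - 1) * Nat.card ↥(stabilizer G a ⊓ stabilizer G b) := by
  classical
  have horb : orbit ↥(stabilizer G a) b = {x | x ≠ a} := by
    ext x
    constructor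
    · rintro ⟨g, rfl⟩ (h : (g : G) • b = a)
      exact hab.symm (MulAction.injective (g : G) (h.trans (mem_stabilizer_iff.1 g.2).symm))
    · intro hx
      obtain ⟨g, hga, hgb⟩ := exists_move hZ hab (Ne.symm hx)
      exact ⟨⟨g, hga⟩, hgb⟩
  have hidx : (stabilizer ↥(stabilizer G a) b).index = Fintype.card Ω - 1 := by
    rw [index_stabilizer, horb, Set.ncard_eq_toFinset_card' _]
    simp [Finset.filter_ne']
  have hst : Nat.card ↥(stabilizer ↥(stabilizer G a) b) = Nat.card ↥(stabilizer G a ⊓ stabilizer G b) :=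
    Nat.card_congr
      { toFun := fun x => ⟨((x : ↥(stabilizer G a)) : G), x.1.2, x.2⟩
        invFun := fun x => ⟨⟨(x : G), x.2.1⟩, x.2.2⟩
        left_inv := fun _ => rfl
        right_inv := fun _ => rfl }
  rw [← hidx, ← hst, Subgroup.index_mul_card]

theorem card_group {a b : Ω} (hab : a ≠ b) :
    Nat.card G = Fintype.card Ω * ((Fintype.card Ω - 1) * Nat.card ↥(stabilizer G a ⊓ stabilizer G b)) := by
  haveI := pretransitive hZ hab
  rw [← card_stab hZ hab, ← Subgroup.index_mul_card (stabilizer G a), index_stabilizer_of_transitive,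
    Nat.card_eq_fintype_card]

theorem not_prime {a b : Ω} (hab : a ≠ b) : ¬ (Nat.card G).Prime := by
  rw [card_group hZ hab]
  have h2 := two_le_card hZ hab
  refine Nat.not_prime_mul (by omega) ?_
  intro h
  have := Nat.eq_one_of_mul_eq_one_left h
  have := one_lt_two_stab hZ hab
  omega

theorem card_fixset_le {g : G} (hg : g ≠ 1) : (fixset (Ω := Ω) g).card ≤ 2 := by
  by_contra h
  obtain ⟨x, hx, y, hy, z, hz, hxy, hxz, hyz⟩ := Finset.two_lt_card.1 (not_le.1 h)
  exact hg (eq_one_of_three hZ hxy hyz hxz ((mem_fixset).1 hx) ((mem_fixset).1 hy) ((mem_fixset).1 hz))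

/-- Twice the number of fixed-point-free elements. -/
theorem card_free {a b : Ω} (hab : a ≠ b) :
    2 * (Nat.card {g : G // ∀ c : Ω, g • c ≠ c} : ℤ) =
      (Nat.card G : ℤ) - ((Fintype.card Ω : ℤ) - 1) * ((Fintype.card Ω : ℤ) - 2) := by
  classical
  haveI := Fintype.ofFinite G
  haveI := pretransitive hZ hab
  set n : ℤ := (Fintype.card Ω : ℤ) with hn
  have h2 := two_le_card hZ hab
  have hf1 : ∑ g : G, ((fixset (Ω := Ω) g).card : ℤ) = (Nat.card G : ℤ) := by
    have hc : ∀ c : Ω, ((Finset.univ.filter fun g : G => g • c = c).card : ℤ) = (Nat.card ↥(stabilizer G c) : ℤ) := by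
      intro c
      rw [Nat.card_eq_fintype_card, Fintype.card_subtype]
      rfl
    have hall : ∀ c : Ω, (Fintype.card Ω : ℤ) * (Nat.card ↥(stabilizer G c) : ℤ) = (Nat.card G : ℤ) := fun c => by
      rw [← Subgroup.index_mul_card (stabilizer G c), index_stabilizer_of_transitive, Nat.card_eq_fintype_card (α := Ω)]
      push_cast; ring
    simp only [fixset, Finset.card_filter, Nat.cast_sum]
    rw [Finset.sum_comm]
    simp only [← Nat.cast_sum, ← Finset.card_filter, hc]
    have hmul : (Fintype.card Ω : ℤ) * ∑ c : Ω, (Nat.card ↥(stabilizer G c) : ℤ) =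
        (Fintype.card Ω : ℤ) * (Nat.card G : ℤ) := by
      rw [Finset.mul_sum, Finset.sum_congr rfl fun c _ => hall c, Finset.sum_const, Finset.card_univ, nsmul_eq_mul]
    rw [Nat.cast_sum]
    exact mul_left_cancel₀ (show (Fintype.card Ω : ℤ) ≠ 0 by exact_mod_cast (by omega : Fintype.card Ω ≠ 0)) hmul
  have hf2 : ∑ g : G, ((fixset (Ω := Ω) g).offDiag.card : ℤ) = (Nat.card G : ℤ) := by
    have hp : ∀ g : G, (fixset (Ω := Ω) g).offDiag =
        (Finset.univ : Finset Ω).offDiag.filter fun x => g • x.1 = x.1 ∧ g • x.2 = x.2 := by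
      intro g
      ext ⟨x, y⟩
      simp only [Finset.mem_offDiag, mem_fixset, Finset.mem_filter, Finset.mem_univ, true_and]
      tauto
    have hc : ∀ x ∈ (Finset.univ : Finset Ω).offDiag,
        (((Finset.univ.filter fun g : G => g • x.1 = x.1 ∧ g • x.2 = x.2).card : ℕ) : ℤ) =
          (Nat.card ↥(stabilizer G a ⊓ stabilizer G b) : ℤ) := by
      intro x hx
      rw [card_two_stab hZ hab (Finset.mem_offDiag.1 hx).2.2, Nat.card_eq_fintype_card, Fintype.card_subtype]
      congr 2
      ext g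
      simp [Subgroup.mem_inf]
    simp only [hp, Finset.card_filter, Nat.cast_sum]
    rw [Finset.sum_comm]
    simp only [← Nat.cast_sum, ← Finset.card_filter]
    rw [Nat.cast_sum, Finset.sum_congr rfl hc, Finset.sum_const, Finset.offDiag_card, Finset.card_univ, nsmul_eq_mul,
      card_group hZ hab, Nat.cast_sub (Nat.le_mul_self _)]
    push_cast [Nat.cast_sub (show 1 ≤ Fintype.card Ω by omega)]
    ring
  have hpt : ∀ g : G, (if ∀ c : Ω, g • c ≠ c then (2 : ℤ) else 0) =
      2 - 2 * ((fixset (Ω := Ω) g).card : ℤ) + ((fixset (Ω := Ω) g).offDiag.card : ℤ) -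
        (if g = 1 then 2 - 2 * n + n * (n - 1) else 0) := by
    intro g
    have hoff : ((fixset (Ω := Ω) g).offDiag.card : ℤ) = ((fixset (Ω := Ω) g).card : ℤ) * (((fixset (Ω := Ω) g).card : ℤ) - 1) := by
      rw [Finset.offDiag_card, Nat.cast_sub (Nat.le_mul_self _), Nat.cast_mul]; ring
    rw [hoff]
    by_cases hg : g = 1
    · subst hg
      have hu : fixset (Ω := Ω) (1 : G) = Finset.univ := Finset.eq_univ_of_forall fun c => (mem_fixset).2 (one_smul G c)
      rw [if_neg (fun h => h a (one_smul G a)), if_pos rfl, hu, Finset.card_univ]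
      ring
    · rw [if_neg hg, sub_zero]
      have hle := card_fixset_le hZ hg
      have hiff : (∀ c : Ω, g • c ≠ c) ↔ (fixset (Ω := Ω) g).card = 0 := by
        rw [Finset.card_eq_zero, Finset.eq_empty_iff_forall_notMem]
        simp only [mem_fixset]
      rcases (show (fixset (Ω := Ω) g).card = 0 ∨ (fixset (Ω := Ω) g).card = 1 ∨ (fixset (Ω := Ω) g).card = 2 by omega) with h | h | h
      · rw [if_pos (hiff.2 h), h]; norm_num
      · rw [if_neg (fun hh => by rw [hiff, h] at hh; omega), h]; norm_num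
      · rw [if_neg (fun hh => by rw [hiff, h] at hh; omega), h]; norm_num
  have hs := Finset.sum_congr (s₁ := (Finset.univ : Finset G)) rfl fun g _ => hpt g
  rw [Finset.sum_sub_distrib, Finset.sum_add_distrib, Finset.sum_sub_distrib, Finset.sum_const, ← Finset.mul_sum,
    hf1, hf2, Finset.sum_ite_eq', if_pos (Finset.mem_univ _), Finset.card_univ, ← Finset.sum_filter,
    Finset.sum_const, ← Fintype.card_subtype, ← Nat.card_eq_fintype_card, ← Nat.card_eq_fintype_card, nsmul_eq_mul,
    nsmul_eq_mul] at hs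
  linear_combination hs

theorem orderOf_two_of_swap {a b : Ω} (hab : a ≠ b) {s : G} (hsa : s • a = b) (hsb : s • b = a)
    (hinv : ∀ k ∈ stabilizer G a ⊓ stabilizer G b, s * k * s⁻¹ = k⁻¹) (hs : s * s = 1) {x : G}
    (hxa : x • a = b) (hxb : x • b = a) : orderOf x = 2 ∧ ∃ k ∈ stabilizer G a ⊓ stabilizer G b, x = s * k := by
  have hk : s⁻¹ * x ∈ stabilizer G a ⊓ stabilizer G b := by
    refine ⟨?_, ?_⟩
    · show (s⁻¹ * x) • a = a
      rw [mul_smul, hxa, inv_smul_eq_iff, hsa]
    · show (s⁻¹ * x) • b = b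
      rw [mul_smul, hxb, inv_smul_eq_iff, hsb]
  refine ⟨orderOf_eq_prime ?_ fun h => hab (by rw [← hxa, h, one_smul]), _, hk, (mul_inv_cancel_left s x).symm⟩
  have h := hinv _ hk
  have hsi : s⁻¹ = s := inv_eq_of_mul_eq_one_right hs
  rw [mul_inv_cancel_left, mul_inv_rev, inv_inv] at h
  have h2 : x = x⁻¹ * (s * s) := by rw [← mul_assoc, ← h]; group
  rw [hs, mul_one] at h2
  rw [pow_two]
  nth_rewrite 1 [h2]
  exact inv_mul_cancel x

/-- The hypothesis of S0739 in a simple Zassenhaus group. -/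
theorem no_normal_complement [IsSimpleGroup G] {a b : Ω} (hab : a ≠ b) (q : ℕ) (hq : q.Prime)
    (hqd : q ∣ Nat.card ↥(stabilizer G a ⊓ stabilizer G b)) :
    ¬ ∃ N : Subgroup G, N.Normal ∧ N.index = q ^ (Nat.card G).factorization q := by
  rintro ⟨N, hN, hidx⟩
  haveI := Fact.mk hq
  have hk : 1 ≤ (Nat.card G).factorization q :=
    hq.factorization_pos_of_dvd Nat.card_pos.ne' (hqd.trans (Subgroup.card_subgroup_dvd_card _))
  have hne1 : q ^ (Nat.card G).factorization q ≠ 1 := (Nat.one_lt_pow (by omega) hq.one_lt).ne'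
  rcases hN.eq_bot_or_eq_top with h | h
  · subst h
    rw [Subgroup.index_bot] at hidx
    have hp : IsPGroup q G := IsPGroup.of_card hidx
    haveI : Nontrivial G := IsSimpleGroup.toNontrivial
    haveI := hp.center_nontrivial
    have hc : Subgroup.center G = ⊤ :=
      ((inferInstance : (Subgroup.center G).Normal).eq_bot_or_eq_top).resolve_left
        fun hb => absurd hb ((Subgroup.nontrivial_iff_ne_bot _).1 inferInstance)
    letI : CommGroup G := { (inferInstance : Group G) with
      mul_comm := fun x y => (Subgroup.mem_center_iff.1 (hc ▸ Subgroup.mem_top y) x) }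
    exact not_prime hZ hab IsSimpleGroup.prime_card
  · subst h
    rw [Subgroup.index_top] at hidx
    exact hne1 hidx.symm

open Classical in
/-- Splitting a sum over a point stabiliser by fixed points. -/
theorem sum_stab {R : Type*} [AddCommMonoid R] [Fintype G] {a : Ω} (F : G → R) :
    ∑ y ∈ Finset.univ.filter (fun y : G => y • a = a), F y =
      F 1 + (∑ y ∈ Finset.univ.filter (fun y : G => y • a = a ∧ ∀ c : Ω, y • c = c → c = a), F y) +
        ∑ c ∈ Finset.univ.erase a, ∑ y ∈ Finset.univ.filter (fun y : G => y • a = a ∧ y • c = c ∧ y ≠ 1), F y := by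
  set A := Finset.univ.filter fun y : G => y • a = a with hA
  rw [← Finset.add_sum_erase A F (Finset.mem_filter.2 ⟨Finset.mem_univ 1, one_smul G a⟩), add_assoc]
  congr 1
  rw [← Finset.sum_filter_add_sum_filter_not (A.erase 1) (fun y => ∀ c : Ω, y • c = c → c = a)]
  congr 1
  · refine Finset.sum_congr ?_ fun _ _ => rfl
    ext y
    simp only [hA, Finset.mem_filter, Finset.mem_erase, Finset.mem_univ, true_and]
    refine ⟨fun h => ⟨h.1.2, h.2⟩, fun h => ⟨⟨fun h1 => ?_, h.1⟩, h.2⟩⟩
    obtain ⟨g, hg, c, d, hcd, hc, hd⟩ := hZ.2.2.2.1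
    exact hcd ((h.2 c (by rw [h1, one_smul])).trans (h.2 d (by rw [h1, one_smul])).symm)
  · rw [← Finset.sum_biUnion]
    · refine Finset.sum_congr ?_ fun _ _ => rfl
      ext y
      simp only [hA, Finset.mem_filter, Finset.mem_erase, Finset.mem_univ, true_and, Finset.mem_biUnion]
      constructor
      · rintro ⟨⟨h1, h2⟩, h3⟩
        push Not at h3
        obtain ⟨c, hc, hca⟩ := h3
        exact ⟨c, ⟨hca, trivial⟩, h2, hc, h1⟩
      · rintro ⟨c, ⟨hca, -⟩, h2, h3, h1⟩
        exact ⟨⟨h1, h2⟩, fun h => hca (h c h3)⟩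
    · intro c hc d hd hcd
      refine Finset.disjoint_left.2 fun y hy hy' => ?_
      simp only [Finset.mem_filter, Finset.mem_univ, true_and] at hy hy'
      simp only [Finset.coe_erase, Finset.coe_univ, Set.mem_diff, Set.mem_univ, true_and, Set.mem_singleton_iff] at hc hd
      exact hy.2.2 (eq_one_of_three hZ (Ne.symm hc) hcd (Ne.symm hd) hy.1 hy.2.1 hy'.2.1)

open Classical in
/-- An element fixing only `a` lies in the kernel `H`. -/
theorem mem_kernel {a b : Ω} (hab : a ≠ b) {H : Subgroup G} (hHa : H ≤ stabilizer G a)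
    (hHcard : Nat.card H + 1 = Fintype.card Ω) (hHfix : ∀ u ∈ H, u ≠ 1 → ∀ c : Ω, u • c = c → c = a)
    {y : G} (hy : y • a = a) (hy' : ∀ c : Ω, y • c = c → c = a) : y ∈ H := by
  haveI := Fintype.ofFinite G
  set S := Finset.univ.filter (fun y : G => y • a = a ∧ ∀ c : Ω, y • c = c → c = a) with hS
  have hsub : (Finset.univ.filter fun y : G => y ∈ H).erase 1 ⊆ S := fun z hz => by
    simp only [Finset.mem_erase, Finset.mem_filter, Finset.mem_univ, true_and] at hz
    exact Finset.mem_filter.2 ⟨Finset.mem_univ _, hHa hz.2, hHfix z hz.2 hz.1⟩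
  have hsum := sum_stab hZ (a := a) (fun _ => (1 : ℕ))
  simp only [Finset.sum_const, smul_eq_mul, mul_one] at hsum
  rw [Finset.sum_congr rfl (g := fun _ => Nat.card ↥(stabilizer G a ⊓ stabilizer G b) - 1) (fun c hc => ?_),
    Finset.sum_const, Finset.card_erase_of_mem (Finset.mem_univ _), Finset.card_univ, smul_eq_mul,
    show (Finset.univ.filter fun y : G => y • a = a).card = Nat.card ↥(stabilizer G a) by
      rw [Nat.card_eq_fintype_card, Fintype.card_subtype]; congr 1,
    card_stab hZ hab] at hsum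
  · have hle : S.card ≤ ((Finset.univ.filter fun y : G => y ∈ H).erase 1).card := by
      rw [Finset.card_erase_of_mem (Finset.mem_filter.2 ⟨Finset.mem_univ _, H.one_mem⟩),
        show (Finset.univ.filter fun y : G => y ∈ H).card = Nat.card ↥H by
          rw [Nat.card_eq_fintype_card, Fintype.card_subtype]]
      have he := one_lt_two_stab hZ hab
      rw [Nat.mul_sub_one] at hsum
      have := Nat.le_mul_of_pos_right (Fintype.card Ω - 1) (Nat.lt_of_lt_of_le Nat.one_pos he.le)
      generalize (Fintype.card Ω - 1) * Nat.card ↥(stabilizer G a ⊓ stabilizer G b) = X at hsum this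
      rw [← hS] at hsum
      generalize S.card = sc at hsum ⊢
      omega
    have hmem : y ∈ S := Finset.mem_filter.2 ⟨Finset.mem_univ _, hy, hy'⟩
    rw [← Finset.eq_of_subset_of_card_le hsub hle] at hmem
    exact (Finset.mem_filter.1 (Finset.mem_of_mem_erase hmem)).2
  · rw [card_two_stab hZ hab (Ne.symm (Finset.mem_erase.1 hc).1), Nat.card_eq_fintype_card, Fintype.card_subtype,
      ← Finset.card_erase_of_mem (a := (1 : G))]
    · congr 1
      ext z
      simp only [Finset.mem_erase, Finset.mem_filter, Finset.mem_univ, true_and, Subgroup.mem_inf, mem_stabilizer_iff]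
      tauto
    · simp

end CfsgLib.Zass
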